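import Mathlib
import Cfsg.Agent.Lib.Helper83.MinSU.Defs
import Cfsg.Agent.Lib.Helper8.MinSU.NUM
import Cfsg.Agent.Lib.Helper15.MinSU.BIG
import Cfsg.Agent.Lib.Helper15.MinSU.DUAL

set_option autoImplicit false

namespace Cfsg.Agent.Lib.Helper75.MinSU

open Matrix Cfsg.Agent.Lib.Helper13 Cfsg.Agent.Lib.Helper5 Cfsg.Agent.Lib.Helper57.RootSU
  Cfsg.Agent.Lib.Helper83.MinSU
open Cfsg.Agent.Lib.Helper8.MinSU Cfsg.Agent.Lib.Helper15.MinSU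

variable {F : Type*} [Field F] [Fintype F] {q m n : ℕ}

lemma two_le_q (hF : Fintype.card F = q ^ 2) : 2 ≤ q := by
  have h1 : 1 < Fintype.card F := Fintype.one_lt_card
  rw [hF] at h1
  by_contra h
  have : q = 0 ∨ q = 1 := by omega
  rcases this with rfl | rfl <;> simp at h1

/-- `N_(m+2) ≤ q^(m+1) N_m`. -/
lemma arith_wbi (q m N N' : ℕ) (hq : 2 ≤ q) (hm : 4 ≤ m)
    (h1 : N * (q ^ 2 - 1) = (q ^ m - 1) * (q ^ (m - 1) + 1))
    (h2 : N' = 1 + q ^ 2 * N + q ^ (2 * m + 1)) : N' ≤ q ^ (m + 1) * N := by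
  obtain ⟨k, rfl⟩ : ∃ k, m = k + 4 := ⟨m - 4, by omega⟩
  obtain ⟨a, ha⟩ : ∃ a, a = q ^ (k + 3) := ⟨_, rfl⟩
  have e1 : q ^ (k + 4) = q * a := by rw [ha]; ring
  have e2 : q ^ (k + 4 - 1) = a := by rw [ha]; rfl
  have e3 : q ^ (2 * (k + 4) + 1) = q ^ 3 * a ^ 2 := by rw [ha]; ring
  have e4 : q ^ (k + 4 + 1) = q ^ 2 * a := by rw [ha]; ring
  have ha3 : q ^ 3 ≤ a := by
    rw [ha]
    exact Nat.pow_le_pow_right (by omega) (by omega)
  rw [e1, e2] at h1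
  rw [h2, e3, e4]
  have hq2 : 1 ≤ q ^ 2 := Nat.one_le_pow _ _ (by omega)
  have hqa : 1 ≤ q * a := by
    have : 1 ≤ a := le_trans (Nat.one_le_pow _ _ (by omega)) ha3
    nlinarith
  zify [hq2, hqa] at h1 ⊢
  have hQ : (2 : ℤ) ≤ q := by exact_mod_cast hq
  have hA : (q : ℤ) ^ 3 ≤ a := by exact_mod_cast ha3
  generalize (q : ℤ) = Q at *
  generalize (a : ℤ) = A at *
  generalize (N : ℤ) = M at *
  have hQ2 : 0 < Q ^ 2 - 1 := by nlinarith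
  have hAQ : Q ^ 2 + 1 ≤ A := by nlinarith [sq_nonneg Q]
  have hA0 : 0 < A := by nlinarith
  have key : 0 ≤ Q ^ 3 * A ^ 2 * (A - Q ^ 2) + A ^ 2 * (Q ^ 3 - Q ^ 2) - Q ^ 3 * A + 1 := by
    have t1 : Q ^ 3 * A ^ 2 * 1 ≤ Q ^ 3 * A ^ 2 * (A - Q ^ 2) := by
      apply mul_le_mul_of_nonneg_left (by linarith) (by positivity)
    have t2 : 0 ≤ A ^ 2 * (Q ^ 3 - Q ^ 2) := by
      apply mul_nonneg (by positivity)
      nlinarith [sq_nonneg Q]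
    have t3 : Q ^ 3 * A ≤ Q ^ 3 * A ^ 2 := by
      apply mul_le_mul_of_nonneg_left _ (by positivity)
      nlinarith
    linarith
  have fin : (Q ^ 2 - 1) * (1 + Q ^ 2 * M + Q ^ 3 * A ^ 2) ≤ (Q ^ 2 - 1) * (Q ^ 2 * A * M) := by
    have l : (Q ^ 2 - 1) * (1 + Q ^ 2 * M + Q ^ 3 * A ^ 2)
        = (Q ^ 2 - 1) * (1 + Q ^ 3 * A ^ 2) + Q ^ 2 * (M * (Q ^ 2 - 1)) := by ring
    have r : (Q ^ 2 - 1) * (Q ^ 2 * A * M) = Q ^ 2 * A * (M * (Q ^ 2 - 1)) := by ring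
    rw [l, r, h1]
    nlinarith [key]
  exact le_of_mul_le_mul_left fin hQ2

/-- [WBI] -/
theorem wb_of_ih (hF : Fintype.card F = q ^ 2) (hm : 4 ≤ m) (he : Even m)
    (IH : ∀ R : Subgroup (Cfsg.SU m F q), R ≠ ⊤ → NU q m ≤ R.index) : WB F q m := by
  intro D R hD0 hDq _ hR
  have hq := two_le_q hF
  obtain ⟨s, hs0, hs⟩ := exists_skew_q hF
  have hcard : Nat.card D ^ 2 ≤ q ^ (2 * m) := by
    apply iso_lemma hF ⊥ ⟨s, hs, by simpa using hs0⟩ D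
    intro w hw w' hw'
    rw [AddSubgroup.mem_bot, ← hermForm_swap hF w w', hDq w hw w' hw', sub_self]
  have hcard' : Nat.card D ≤ q ^ m := by
    have : Nat.card D ^ 2 ≤ (q ^ m) ^ 2 := by rw [← pow_mul, mul_comm m 2]; exact hcard
    exact (Nat.pow_le_pow_iff_left (by norm_num)).1 this
  have hRtop : R ≠ ⊤ := by
    rintro rfl
    obtain ⟨w, hw, hw0⟩ : ∃ w ∈ D, w ≠ 0 := by
      by_contra hcon
      push Not at hcon
      exact hD0 ((AddSubgroup.eq_bot_iff_forall D).2 hcon)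
    have := big_lemma hF hm D w hw hw0
      (fun y _ _ => ⟨s, hs0, hs, fun z hz => hR _ (Subgroup.mem_top _) z hz⟩)
    omega
  have hidx := IH R hRtop
  have hN := arith_wbi q m (NU q m) (NU q (m + 2)) hq hm (NU_mul hq he)
    (NU_succ hq he (by omega))
  calc Nat.card D * NU q (m + 2) ≤ q ^ m * (q ^ (m + 1) * NU q m) := Nat.mul_le_mul hcard' hN
    _ = q ^ (2 * m + 1) * NU q m := by ring
    _ ≤ q ^ (2 * m + 1) * R.index := Nat.mul_le_mul_left _ hidx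

end Cfsg.Agent.Lib.Helper75.MinSU
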