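import Mathlib

set_option autoImplicit false

namespace Cfsg.Agent.Lib.Helper75.MinSU

/-- `N_(m+2) ≤ 2 q^(2m+1)`. -/
lemma arith_two (q m N : ℕ) (hq : 2 ≤ q) (hm : 1 ≤ m)
    (h1 : N * (q ^ 2 - 1) = (q ^ (m + 2) - 1) * (q ^ (m + 2 - 1) + 1)) :
    N ≤ 2 * q ^ (2 * m + 1) := by
  obtain ⟨x, hx⟩ : ∃ x, x = q ^ m := ⟨_, rfl⟩
  have e1 : q ^ (m + 2) = q ^ 2 * x := by rw [hx]; ring
  have e2 : q ^ (m + 2 - 1) = q * x := by
    rw [hx, show m + 2 - 1 = m + 1 by omega]; ring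
  have e3 : q ^ (2 * m + 1) = q * x ^ 2 := by rw [hx]; ring
  have hxq : q ≤ x := by
    rw [hx]
    calc q = q ^ 1 := (pow_one q).symm
      _ ≤ q ^ m := Nat.pow_le_pow_right (by omega) hm
  rw [e1, e2] at h1
  rw [e3]
  have hq2 : 1 ≤ q ^ 2 := Nat.one_le_pow _ _ (by omega)
  have hqx : 1 ≤ q ^ 2 * x := by nlinarith
  zify [hq2, hqx] at h1 ⊢
  have hQ : (2 : ℤ) ≤ q := by exact_mod_cast hq
  have hX : (q : ℤ) ≤ x := by exact_mod_cast hxq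
  generalize (q : ℤ) = Q at *
  generalize (x : ℤ) = X at *
  generalize (N : ℤ) = M at *
  have hQ2 : 0 < Q ^ 2 - 1 := by nlinarith
  have fin : (Q ^ 2 - 1) * M ≤ (Q ^ 2 - 1) * (2 * (Q * X ^ 2)) := by
    rw [mul_comm (Q ^ 2 - 1) M, h1]
    have t1 : 0 ≤ Q * X * (2 * X - Q) := by
      apply mul_nonneg (by nlinarith) (by linarith)
    have t2 : 0 ≤ Q * X ^ 2 * (Q ^ 2 - 4) := by
      apply mul_nonneg (by positivity) (by nlinarith)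
    have t3 : 0 ≤ Q * X := by nlinarith
    nlinarith [t1, t2, t3]
  exact le_of_mul_le_mul_left fin hQ2

/-- `N_(m+2) ≤ 2 q^(2m) (q-1)` for `q ≥ 4`. -/
lemma arith_beta (q m N : ℕ) (hq : 4 ≤ q)
    (h1 : N * (q ^ 2 - 1) = (q ^ (m + 2) - 1) * (q ^ (m + 2 - 1) + 1)) :
    N ≤ 2 * q ^ (2 * m) * (q - 1) := by
  obtain ⟨x, hx⟩ : ∃ x, x = q ^ m := ⟨_, rfl⟩
  have e1 : q ^ (m + 2) = q ^ 2 * x := by rw [hx]; ring
  have e2 : q ^ (m + 2 - 1) = q * x := by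
    rw [hx, show m + 2 - 1 = m + 1 by omega]; ring
  have e3 : q ^ (2 * m) = x ^ 2 := by rw [hx]; ring
  have hx1 : 1 ≤ x := by
    rw [hx]
    exact Nat.one_le_pow _ _ (by omega)
  rw [e1, e2] at h1
  rw [e3]
  have hq2 : 1 ≤ q ^ 2 := Nat.one_le_pow _ _ (by omega)
  have hqx : 1 ≤ q ^ 2 * x := by nlinarith
  have hq1 : 1 ≤ q := by omega
  zify [hq2, hqx, hq1] at h1 ⊢
  have hQ : (4 : ℤ) ≤ q := by exact_mod_cast hq
  have hX : (1 : ℤ) ≤ x := by exact_mod_cast hx1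
  generalize (q : ℤ) = Q at *
  generalize (x : ℤ) = X at *
  generalize (N : ℤ) = M at *
  have hQ2 : 0 < Q ^ 2 - 1 := by nlinarith
  have fin : (Q ^ 2 - 1) * M ≤ (Q ^ 2 - 1) * (2 * X ^ 2 * (Q - 1)) := by
    rw [mul_comm (Q ^ 2 - 1) M, h1]
    have t0 : Q ^ 2 ≤ Q ^ 3 - 2 * Q ^ 2 - 2 * Q + 2 := by nlinarith [sq_nonneg Q]
    have t1 : X ^ 2 * Q ^ 2 ≤ X ^ 2 * (Q ^ 3 - 2 * Q ^ 2 - 2 * Q + 2) :=
      mul_le_mul_of_nonneg_left t0 (by positivity)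
    have t2 : Q ^ 2 * X ≤ X ^ 2 * Q ^ 2 := by
      have : Q ^ 2 * X * 1 ≤ Q ^ 2 * X * X := mul_le_mul_of_nonneg_left hX (by positivity)
      nlinarith [this]
    have t3 : 0 ≤ Q * X := by nlinarith
    nlinarith [t1, t2, t3]
  exact le_of_mul_le_mul_left fin hQ2

end Cfsg.Agent.Lib.Helper75.MinSU
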