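import Mathlib
import Cfsg.Agent.Lib.Helper83.MinSU.Defs
import Cfsg.Agent.Lib.Helper8.MinSU.NUM
import Cfsg.Agent.Lib.Helper15.MinSU.IDX
import Cfsg.Agent.Lib.Helper15.MinSU.BIG
import Cfsg.Agent.Lib.Helper15.MinSU.LAM
import Cfsg.Agent.Lib.Helper15.MinSU.DUAL
import Cfsg.Agent.Lib.Helper22.MinSU.TOP
import Cfsg.Agent.Lib.Helper22.MinSU.INV
import Cfsg.Agent.Lib.Helper75.MinSU.Arith
import Cfsg.Agent.Lib.Helper5.SUOrder

set_option autoImplicit false

namespace Cfsg.Agent.Lib.Helper75.MinSU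

open Matrix Cfsg.Agent.Lib.Helper13 Cfsg.Agent.Lib.Helper5 Cfsg.Agent.Lib.Helper57.RootSU
  Cfsg.Agent.Lib.Helper83.MinSU
open Cfsg.Agent.Lib.Helper8.MinSU Cfsg.Agent.Lib.Helper15.MinSU Cfsg.Agent.Lib.Helper22.MinSU

variable {F : Type*} [Field F] [Fintype F] {q m n : ℕ}

lemma two_le_q' (hF : Fintype.card F = q ^ 2) : 2 ≤ q := by
  have h1 : 1 < Fintype.card F := Fintype.one_lt_card
  rw [hF] at h1
  by_contra h
  have : q = 0 ∨ q = 1 := by omega
  rcases this with rfl | rfl <;> simp at h1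

lemma sq_sub_one_eq (q : ℕ) (hq : 1 ≤ q) : q ^ 2 - 1 = (q - 1) * (q + 1) := by
  obtain ⟨k, rfl⟩ : ∃ k, q = k + 1 := ⟨q - 1, by omega⟩
  have : (k + 1) ^ 2 = k * (k + 1 + 1) + 1 := by ring
  rw [this]
  simp

section loc

variable {P : Type*} [Group P] [Finite P] (L : ULoc m F q P) (S : Subgroup P)

omit [Finite P] in
lemma card_Lam_le (hF : Fintype.card F = q ^ 2) : Nat.card (L.Lam S) ≤ q ^ 2 - 1 := by
  have h1 : Nat.card (L.Lam S) ≤ Nat.card Fˣ := Subgroup.card_le_card_group _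
  rw [Nat.card_units] at h1
  rw [show Nat.card F = q ^ 2 from by rw [Nat.card_eq_fintype_card, hF]] at h1
  exact h1

omit [Finite P] in
lemma card_Lam_le' (hF : Fintype.card F = q ^ 2) (h : ∀ t ∈ L.Lam S, t ^ (q + 1) = 1) :
    Nat.card (L.Lam S) ≤ q + 1 := by
  rw [← card_norm_one_units hF]
  exact Nat.card_le_card_of_injective
    (fun t : L.Lam S => (⟨t.1, h t.1 t.2⟩ : {x : Fˣ // x ^ (q + 1) = 1}))
    (fun a b hab => Subtype.ext (congrArg (fun z : {x : Fˣ // x ^ (q + 1) = 1} => z.1) hab))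

lemma two_le_index {G : Type*} [Group G] [Finite G] (H : Subgroup G) (h : H ≠ ⊤) : 2 ≤ H.index := by
  have h0 : H.index ≠ 0 := Subgroup.index_ne_zero_of_finite
  have h1 : H.index ≠ 1 := fun h' => h (Subgroup.index_eq_one.1 h')
  omega

/-- [ALPHA] -/
theorem local_alpha (hF : Fintype.card F = q ^ 2) (hq : 3 ≤ q) (hm : 4 ≤ m) (he : Even m)
    (hWB : WB F q m) (hRF : L.RF S) (hA : ∀ a, a + a ^ q = 0 → L.rho 0 a ∈ S → a = 0) :
    NU q (m + 2) ≤ S.index := by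
  have hq2 : 2 ≤ q := by omega
  have hAbot : L.A hF S = ⊥ := by
    rw [AddSubgroup.eq_bot_iff_forall]
    rintro a ⟨h1, h2⟩
    exact hA a h1 h2
  have hidx := index_formula L S hF
  rw [hAbot, AddSubgroup.card_bot, mul_one] at hidx
  have hN2 : NU q (m + 2) ≤ 2 * q ^ (2 * m + 1) :=
    arith_two q m _ hq2 (by omega) (NU_mul hq2 (he.add even_two))
  have hl : Nat.card (L.Lam S) ≤ q ^ 2 - 1 := card_Lam_le L S hF
  have hl0 : 0 < Nat.card (L.Lam S) := Nat.card_pos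
  have hfac := sq_sub_one_eq q (by omega)
  have hX0 : 0 < q ^ (2 * m + 1) := by positivity
  by_cases hB : L.Bb hF S = ⊥
  · rw [hB, AddSubgroup.card_bot, one_mul] at hidx
    refine hN2.trans ?_
    by_cases hS1 : L.S1 hF S = ⊤
    · have hl' : Nat.card (L.Lam S) ≤ q + 1 :=
        card_Lam_le' L S hF (S1_top_lam L S hF hm hRF hS1).2
      rw [hS1, Subgroup.index_top, mul_one, hfac] at hidx
      have h1 : q ^ (2 * m + 1) * (q - 1) * (q + 1) ≤ S.index * (q + 1) := by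
        calc q ^ (2 * m + 1) * (q - 1) * (q + 1) = q ^ (2 * m + 1) * ((q - 1) * (q + 1)) := by ring
          _ = S.index * Nat.card (L.Lam S) := hidx.symm
          _ ≤ S.index * (q + 1) := Nat.mul_le_mul_left _ hl'
      have h2 := Nat.le_of_mul_le_mul_right h1 (by omega)
      calc 2 * q ^ (2 * m + 1) = q ^ (2 * m + 1) * 2 := by ring
        _ ≤ q ^ (2 * m + 1) * (q - 1) := Nat.mul_le_mul_left _ (by omega)
        _ ≤ S.index := h2
    · have hi := two_le_index _ hS1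
      have h1 : 2 * q ^ (2 * m + 1) * Nat.card (L.Lam S) ≤ S.index * Nat.card (L.Lam S) := by
        rw [hidx]
        calc 2 * q ^ (2 * m + 1) * Nat.card (L.Lam S) ≤ 2 * q ^ (2 * m + 1) * (q ^ 2 - 1) :=
              Nat.mul_le_mul_left _ hl
          _ = q ^ (2 * m + 1) * (q ^ 2 - 1) * 2 := by ring
          _ ≤ q ^ (2 * m + 1) * (q ^ 2 - 1) * (L.S1 hF S).index := Nat.mul_le_mul_left _ hi
      exact Nat.le_of_mul_le_mul_right h1 hl0
  · have hwb := hWB (L.Bb hF S) (L.S1 hF S) hB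
      (by
        intro w hw w' hw'
        have h1 := form_mem_A L S hF w w' hw hw'
        rw [hAbot, AddSubgroup.mem_bot, sub_eq_zero] at h1
        rw [hermForm_swap hF, ← h1])
      (by
        intro h2 w hw
        have h1 := sq_mem_A L S hF h2 w hw
        rwa [hAbot, AddSubgroup.mem_bot] at h1)
      (fun l hl w hw => Bb_invariant L S hF l hl w hw)
    have hb0 : 0 < Nat.card (L.Bb hF S) := Nat.card_pos
    have h1 : NU q (m + 2) * (Nat.card (L.Bb hF S) * Nat.card (L.Lam S))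
        ≤ S.index * (Nat.card (L.Bb hF S) * Nat.card (L.Lam S)) := by
      rw [hidx]
      calc NU q (m + 2) * (Nat.card (L.Bb hF S) * Nat.card (L.Lam S))
          = (Nat.card (L.Bb hF S) * NU q (m + 2)) * Nat.card (L.Lam S) := by ring
        _ ≤ (q ^ (2 * m + 1) * (L.S1 hF S).index) * (q ^ 2 - 1) := Nat.mul_le_mul hwb hl
        _ = q ^ (2 * m + 1) * (q ^ 2 - 1) * (L.S1 hF S).index := by ring
    exact Nat.le_of_mul_le_mul_right h1 (Nat.mul_pos hb0 hl0)

/-- [BETA] -/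
theorem local_beta (hF : Fintype.card F = q ^ 2) (hm : 4 ≤ m) (he : Even m) (hRF : L.RF S)
    (hA : ∃ a, a ≠ 0 ∧ a + a ^ q = 0 ∧ L.rho 0 a ∈ S)
    (hC : ∀ w : Fin m → F, w ≠ 0 → Cfsg.hermForm m F q w w = 0 →
      ∃ c, c ≠ 0 ∧ c + c ^ q = 0 ∧ L.eps (ut hF w c) ∈ S) :
    NU q (m + 2) ≤ S.index := by
  have hq2 : 2 ≤ q := two_le_q' hF
  -- `Bb = ⊥`
  have hB : L.Bb hF S = ⊥ := by
    by_contra hB
    obtain ⟨w, hw, hw0⟩ : ∃ w ∈ L.Bb hF S, w ≠ 0 := by
      by_contra hcon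
      push Not at hcon
      exact hB ((AddSubgroup.eq_bot_iff_forall _).2 hcon)
    have hbig := big_lemma hF hm (L.Bb hF S) w hw hw0 (by
      intro y hy0 hy
      obtain ⟨c, hc0, hc, hcS⟩ := hC y hy0 hy
      refine ⟨c, hc0, hc, fun z hz => Bb_invariant L S hF _ ?_ z hz⟩
      exact ⟨0, 0, Val.zero hF, by rw [L.rho_zero hF, one_mul]; exact hcS⟩)
    obtain ⟨s, hs, hsS⟩ := hRF.1
    have hdual := iso_lemma hF (L.A hF S) ⟨s, hs, fun h => hsS h.2⟩ (L.Bb hF S)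
      (fun w hw w' hw' => form_mem_A L S hF w w' hw hw')
    have : Nat.card (L.Bb hF S) ≤ q ^ m := by
      have h3 : Nat.card (L.Bb hF S) ^ 2 ≤ (q ^ m) ^ 2 := by
        rw [← pow_mul, mul_comm m 2]; exact hdual
      exact (Nat.pow_le_pow_iff_left (by norm_num)).1 h3
    omega
  have hidx := index_formula L S hF
  rw [hB, AddSubgroup.card_bot, one_mul] at hidx
  obtain ⟨hlam1, hlam2⟩ := lam_A L S hF hRF.1
  have ha2 : 2 ≤ Nat.card (L.A hF S) := by
    obtain ⟨a, ha0, ha, haS⟩ := hA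
    have : Nontrivial (L.A hF S) :=
      ⟨⟨⟨a, ha, haS⟩, 0, fun h => ha0 (congrArg Subtype.val h)⟩⟩
    exact Finite.one_lt_card
  have hq4 : 4 ≤ q := by omega
  have hfac := sq_sub_one_eq q (by omega)
  have hl0 : 0 < Nat.card (L.Lam S) := Nat.card_pos
  have hNb : NU q (m + 2) ≤ 2 * q ^ (2 * m) * (q - 1) :=
    arith_beta q m _ hq4 (NU_mul hq2 (he.add even_two))
  by_cases hS1 : L.S1 hF S = ⊤
  · have hl' : Nat.card (L.Lam S) ≤ q + 1 :=
      card_Lam_le' L S hF (S1_top_lam L S hF hm hRF hS1).2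
    rw [hS1, Subgroup.index_top, mul_one, hfac] at hidx
    refine hNb.trans ?_
    -- `I a (q+1) ≥ q^(2m+1) (q-1) (q+1)`, `2 a ≤ q`
    have h1 : (2 * q ^ (2 * m) * (q - 1)) * (q * (q + 1)) ≤ S.index * (q * (q + 1)) := by
      calc (2 * q ^ (2 * m) * (q - 1)) * (q * (q + 1))
          = 2 * (q ^ (2 * m + 1) * ((q - 1) * (q + 1))) := by ring
        _ = 2 * (S.index * (Nat.card (L.A hF S) * Nat.card (L.Lam S))) := by rw [hidx]
        _ = S.index * ((2 * Nat.card (L.A hF S)) * Nat.card (L.Lam S)) := by ring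
        _ ≤ S.index * (q * (q + 1)) := Nat.mul_le_mul_left _ (Nat.mul_le_mul hlam1 hl')
    exact Nat.le_of_mul_le_mul_right h1 (by positivity)
  · have hi := two_le_index _ hS1
    have hal : Nat.card (L.A hF S) * Nat.card (L.Lam S) ≤ q ^ 2 - 1 := by
      rw [hfac]
      have h3 : Nat.card (L.Lam S) * Nat.card (L.A hF S) + (q + 1) * Nat.card (L.A hF S)
          ≤ (q + 1) * q := by
        rw [← add_mul]; exact hlam2
      have h4 : (q + 1) * 1 ≤ (q + 1) * Nat.card (L.A hF S) := Nat.mul_le_mul_left _ (by omega)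
      obtain ⟨k, rfl⟩ : ∃ k, q = k + 1 := ⟨q - 1, by omega⟩
      simp only [Nat.add_sub_cancel]
      nlinarith
    have hN2 : NU q (m + 2) ≤ 2 * q ^ (2 * m + 1) :=
      arith_two q m _ hq2 (by omega) (NU_mul hq2 (he.add even_two))
    refine hN2.trans ?_
    have hc0 : 0 < q ^ 2 - 1 := by
      rw [hfac]
      exact Nat.mul_pos (by omega) (by omega)
    have h1 : 2 * q ^ (2 * m + 1) * (q ^ 2 - 1) ≤ S.index * (q ^ 2 - 1) := by
      calc 2 * q ^ (2 * m + 1) * (q ^ 2 - 1) = q ^ (2 * m + 1) * (q ^ 2 - 1) * 2 := by ring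
        _ ≤ q ^ (2 * m + 1) * (q ^ 2 - 1) * (L.S1 hF S).index := Nat.mul_le_mul_left _ hi
        _ = S.index * (Nat.card (L.A hF S) * Nat.card (L.Lam S)) := hidx.symm
        _ ≤ S.index * (q ^ 2 - 1) := Nat.mul_le_mul_left _ hal
    exact Nat.le_of_mul_le_mul_right h1 hc0

end loc

end Cfsg.Agent.Lib.Helper75.MinSU
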