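import Mathlib
import Cfsg.Agent.Lib.Helper83.MinSU.Defs
import Cfsg.Agent.Lib.Helper45.SUWrap
import Cfsg.Agent.Lib.Helper5.SUPrimitive

/-! Pieces [U1k], [K1], [K2] of the farm for S2152: subgroups of `SU_n(q)` containing the root
groups of a nondegenerate subspace `W` of dimension at least three. -/

set_option autoImplicit false

namespace Cfsg.Agent.Lib.Helper75.MinSU

open Matrix Module Cfsg.Agent.Lib.Helper13 Cfsg.Agent.Lib.Helper5 Cfsg.Agent.Lib.Helper57.RootSU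
  Cfsg.Agent.Lib.Helper83.MinSU Cfsg.Agent.Lib.Helper94 Cfsg.Agent.Lib.Helper94.U
  Cfsg.Agent.Lib.Helper45.SUGen

variable {F : Type*} [Field F] [Fintype F] {q n : ℕ}

/-- the restricted form -/
noncomputable def BW (hF : Fintype.card F = q ^ 2) (W : Submodule F (Fin n → F)) :
    W →ₛₗ[frobQ hF] W →ₗ[F] F := (hermB hF n).domRestrict₁₂ W W

lemma BW_apply (hF : Fintype.card F = q ^ 2) (W : Submodule F (Fin n → F)) (x y : W) :
    BW hF W x y = Cfsg.hermForm n F q y.1 x.1 := rfl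

lemma HW (hF : Fintype.card F = q ^ 2) (W : Submodule F (Fin n → F)) (hW : Nondeg q W) :
    HForm (frobQ hF) (BW hF W) where
  ne_id := frobQ_ne_id hF
  invol := fun a => pow_q_pow_q hF a
  symm := fun x y => (hermB_isSymm hF n).1 x.1 y.1
  nondeg := fun x hx =>
    Subtype.ext (hW x.1 x.2 (fun v hv => hermForm_eq_zero_comm hF (hx ⟨v, hv⟩)))

lemma exists_decomp (hF : Fintype.card F = q ^ 2) (W : Submodule F (Fin n → F)) (hW : Nondeg q W)
    (v : Fin n → F) : ∃ w ∈ W, ∀ y ∈ W, Cfsg.hermForm n F q (v - w) y = 0 := by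
  obtain ⟨b, hb⟩ := exists_repr (HW hF W hW) ((hermB hF n v).comp W.subtype)
  refine ⟨b.1, b.2, fun y hy => ?_⟩
  have h1 : Cfsg.hermForm n F q y v = Cfsg.hermForm n F q y b.1 := hb ⟨y, hy⟩
  apply hermForm_eq_zero_comm hF
  rw [hermForm_sub_right hF, h1, sub_self]

/-- the linear automorphisms of `W` induced by elements of `K` which are trivial on `W^⊥` -/
def TR (K : Subgroup (Cfsg.SU n F q)) (W : Submodule F (Fin n → F)) : Subgroup (W ≃ₗ[F] W) where
  carrier := {t | ∃ k ∈ K, (∀ w : W, k.1.1 *ᵥ w.1 = (t w).1) ∧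
    ∀ z, (∀ w ∈ W, Cfsg.hermForm n F q z w = 0) → k.1.1 *ᵥ z = z}
  one_mem' := ⟨1, K.one_mem, fun w => SU_one_mulVec _, fun z _ => SU_one_mulVec _⟩
  mul_mem' := by
    rintro t t' ⟨k, hk, h1, h2⟩ ⟨k', hk', h1', h2'⟩
    refine ⟨k * k', K.mul_mem hk hk', fun w => ?_, fun z hz => ?_⟩
    · rw [SU_mul_mulVec, h1', h1]; rfl
    · rw [SU_mul_mulVec, h2' z hz, h2 z hz]
  inv_mem' := by
    rintro t ⟨k, hk, h1, h2⟩
    refine ⟨k⁻¹, K.inv_mem hk, fun w => ?_, fun z hz => ?_⟩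
    · have h3 := h1 (t⁻¹ w)
      rw [apply_inv_self'] at h3
      rw [← h3, SU_inv_mulVec_mulVec]
    · conv_lhs => rw [← h2 z hz]
      rw [SU_inv_mulVec_mulVec]

lemma ur_mem_TR (hF : Fintype.card F = q ^ 2) (K : Subgroup (Cfsg.SU n F q))
    (W : Submodule F (Fin n → F)) (hW : Nondeg q W)
    (hK : ∀ v ∈ W, Cfsg.hermForm n F q v v = 0 → v ∈ RS hF K) (u : W) (k : F)
    (hk : k + frobQ hF k + k * frobQ hF k * BW hF W u u = 0) (hu : BW hF W u u = 0) :
    ur (HW hF W hW) u k hk ∈ TR K W := by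
  have hu' : Cfsg.hermForm n F q u.1 u.1 = 0 := hu
  have hk' : k + k ^ q = 0 := by
    rw [hu, frobQ_apply] at hk
    linear_combination hk
  refine ⟨ut hF u.1 k, (hK u.1 u.2 hu').2 k hk', fun w => ?_, fun z hz => ?_⟩
  · rw [ut_mulVec hF hu' hk', ur_apply]; rfl
  · rw [ut_mulVec hF hu' hk', hz u.1 u.2]; simp

lemma bigW (hF : Fintype.card F = q ^ 2) (hq : 3 ≤ q) (W : Submodule F (Fin n → F))
    (hd : 3 ≤ Module.finrank F W) : Big (frobQ hF) W :=
  Or.inr ⟨hd, exists_norm_ne_one hF (by omega)⟩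

/-- [K1] -/
theorem norm_trans (hF : Fintype.card F = q ^ 2) (hq : 3 ≤ q) (K : Subgroup (Cfsg.SU n F q))
    (W : Submodule F (Fin n → F)) (hW : Nondeg q W) (hd : 3 ≤ Module.finrank F W)
    (hK : ∀ v ∈ W, Cfsg.hermForm n F q v v = 0 → v ∈ RS hF K) (x x' : Fin n → F) (hx : x ∈ W)
    (hx' : x' ∈ W) (hn : Cfsg.hermForm n F q x x = Cfsg.hermForm n F q x' x')
    (hn0 : Cfsg.hermForm n F q x x ≠ 0) :
    ∃ k ∈ K, k.1.1 *ᵥ x = x' ∧
      ∀ z, (∀ w ∈ W, Cfsg.hermForm n F q z w = 0) → k.1.1 *ᵥ z = z := by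
  obtain ⟨t, ht, htx⟩ := tvGroup_trans' (HW hF W hW) (bigW hF hq W hd)
    (u := (⟨x, hx⟩ : W)) (v := (⟨x', hx'⟩ : W)) hn0 hn
  obtain ⟨k, hk, h1, h2⟩ := tvGroup_le (HW hF W hW) (TR K W)
    (fun u k hk hu => ur_mem_TR hF K W hW hK u k hk hu) ht
  exact ⟨k, hk, by rw [h1 ⟨x, hx⟩, htx], h2⟩

/-- [U1k] -/
theorem su_sub_le (hF : Fintype.card F = q ^ 2) (hq : 3 ≤ q) (K : Subgroup (Cfsg.SU n F q))
    (W : Submodule F (Fin n → F)) (hW : Nondeg q W) (hd : 3 ≤ Module.finrank F W)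
    (hK : ∀ v ∈ W, Cfsg.hermForm n F q v v = 0 → v ∈ RS hF K) (g : Cfsg.SU n F q)
    (hg : ∀ z, (∀ w ∈ W, Cfsg.hermForm n F q z w = 0) → g.1.1 *ᵥ z = z) : g ∈ K := by
  -- `g` maps `W` to `W`
  have hgW : ∀ w ∈ W, g.1.1 *ᵥ w ∈ W := by
    intro w hw
    obtain ⟨w1, hw1, hz1⟩ := exists_decomp hF W hW (g.1.1 *ᵥ w)
    have h0 : g.1.1 *ᵥ w - w1 = 0 := by
      refine (hermH hF n).nondeg _ (fun y => ?_)
      rw [hermB_apply]
      apply hermForm_eq_zero_comm hF
      obtain ⟨y1, hy1, hy2⟩ := exists_decomp hF W hW y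
      have e : y = y1 + (y - y1) := by abel
      rw [e, hermForm_add_right hF, hz1 y1 hy1, zero_add, hermForm_sub_left]
      have e1 : Cfsg.hermForm n F q (g.1.1 *ᵥ w) (y - y1) = 0 := by
        rw [← hg (y - y1) hy2, SU_preserves]
        exact hermForm_eq_zero_comm hF (hy2 w hw)
      rw [e1, hermForm_eq_zero_comm hF (hy2 w1 hw1), sub_zero]
    rw [sub_eq_zero] at h0
    rw [h0]; exact hw1
  let f : (Fin n → F) →ₗ[F] (Fin n → F) := Matrix.toLin' g.1.1
  have hf : W ≤ W.comap f := fun w hw => by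
    rw [Submodule.mem_comap, Matrix.toLin'_apply]
    exact hgW w hw
  have hinj : Function.Injective (f.restrict hf) := by
    intro a b hab
    have h1 : g.1.1 *ᵥ a.1 = g.1.1 *ᵥ b.1 := by
      have := congrArg Subtype.val hab
      simpa [f, LinearMap.restrict_apply] using this
    apply Subtype.ext
    rw [← SU_inv_mulVec_mulVec g a.1, h1, SU_inv_mulVec_mulVec]
  let t : W ≃ₗ[F] W := LinearEquiv.ofInjectiveEndo (f.restrict hf) hinj
  have ht : ∀ w : W, (t w).1 = g.1.1 *ᵥ w.1 := fun w => by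
    change ((f.restrict hf) w).1 = _
    rw [LinearMap.restrict_apply]
    exact Matrix.toLin'_apply _ _
  have hQ : W.mapQ W f hf = LinearMap.id := by
    apply Submodule.linearMap_qext
    refine LinearMap.ext fun v => ?_
    rw [LinearMap.comp_apply, LinearMap.comp_apply, Submodule.mkQ_apply, Submodule.mapQ_apply,
      LinearMap.id_apply, Submodule.Quotient.eq]
    obtain ⟨w, hw, hz⟩ := exists_decomp hF W hW v
    have e : f v - v = g.1.1 *ᵥ w - w := by
      have e1 : f v = g.1.1 *ᵥ v := Matrix.toLin'_apply _ _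
      have e2 : v = w + (v - w) := by abel
      rw [e1]
      conv_lhs => rw [e2, Matrix.mulVec_add, hg _ hz]
      abel
    rw [e]
    exact W.sub_mem (hgW w hw) hw
  have hdet : LinearMap.det (t : W →ₗ[F] W) = 1 := by
    have h1 := LinearMap.det_eq_det_mul_det W f hf
    rw [hQ, LinearMap.det_id, mul_one, LinearMap.det_toLin'] at h1
    have h2 : (t : W →ₗ[F] W) = f.restrict hf := by
      refine LinearMap.ext fun w => rfl
    rw [h2, ← h1]
    exact g.1.2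
  have hiso : UIsom (BW hF W) t := by
    intro x y
    rw [BW_apply, BW_apply, ht, ht, SU_preserves]
  obtain ⟨k, hk, h1, h2⟩ := mem_of_det_eq_one (HW hF W hW) (bigW hF hq W hd) (TR K W)
    (fun u k hk hu => ur_mem_TR hF K W hW hK u k hk hu) t hiso hdet
  have : g = k := by
    apply SU_ext_mulVec
    intro v
    obtain ⟨w, hw, hz⟩ := exists_decomp hF W hW v
    have e2 : v = w + (v - w) := by abel
    rw [e2, Matrix.mulVec_add, Matrix.mulVec_add, hg _ hz, h2 _ hz, h1 ⟨w, hw⟩, ht]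
  rw [this]; exact hk

/-- [K2] -/
theorem scal_big (hF : Fintype.card F = q ^ 2) (hq : 3 ≤ q) (K : Subgroup (Cfsg.SU n F q))
    (W : Submodule F (Fin n → F)) (hW : Nondeg q W) (hd : 3 ≤ Module.finrank F W)
    (hK : ∀ v ∈ W, Cfsg.hermForm n F q v v = 0 → v ∈ RS hF K) (x : Fin n → F) (hx : x ∈ W)
    (hx0 : x ≠ 0) (hxx : Cfsg.hermForm n F q x x = 0) :
    ∃ mu : F, mu ^ q ≠ mu ∧ ∃ k ∈ K, k.1.1 *ᵥ x = mu • x ∧
      ∀ z, (∀ w ∈ W, Cfsg.hermForm n F q z w = 0) → k.1.1 *ᵥ z = z := by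
  have HWW := HW hF W hW
  obtain ⟨a₀, ha₀W, ha₀⟩ : ∃ a₀ ∈ W, Cfsg.hermForm n F q a₀ x ≠ 0 := by
    by_contra hcon
    push Not at hcon
    exact hx0 (hW x hx (fun v hv => hermForm_eq_zero_comm hF (hcon v hv)))
  obtain ⟨l, hl⟩ := exists_isotropic_add_smul hF hxx ha₀
  set f₀ := a₀ + l • x with hf₀
  have hf₀W : f₀ ∈ W := W.add_mem ha₀W (W.smul_mem _ hx)
  have hfv₀ : Cfsg.hermForm n F q f₀ x ≠ 0 := by
    rw [hf₀, hermForm_add_left, hermForm_smul_left, hxx, mul_zero, add_zero]; exact ha₀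
  obtain ⟨f, hfW, hf, hfv⟩ : ∃ f ∈ W, Cfsg.hermForm n F q f f = 0 ∧ Cfsg.hermForm n F q f x = 1 :=
    ⟨(Cfsg.hermForm n F q f₀ x)⁻¹ • f₀, W.smul_mem _ hf₀W,
      by rw [hermForm_smul_left, hermForm_smul_right, hl]; simp,
      by rw [hermForm_smul_left, inv_mul_cancel₀ hfv₀]⟩
  have hvf : Cfsg.hermForm n F q x f = 1 := by rw [← hermForm_swap hF, hfv, one_pow]
  obtain ⟨z, hz, hzz⟩ : ∃ z ∈ perp (BW hF W)
      (Submodule.span F {(⟨x, hx⟩ : W)} ⊔ Submodule.span F {(⟨f, hfW⟩ : W)}),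
      Cfsg.hermForm n F q z.1 z.1 ≠ 0 := by
    by_contra hcon
    push Not at hcon
    set U := Submodule.span F {(⟨x, hx⟩ : W)} ⊔ Submodule.span F {(⟨f, hfW⟩ : W)} with hU
    have hle : perp (BW hF W) U ≤ U := by
      intro y hy
      rw [← perp_perp HWW U]
      intro y' hy'
      exact HWW.eq_zero_of_forall_isotropic _ hcon hy' hy
    have hbot : perp (BW hF W) U = ⊥ := by
      rw [eq_bot_iff]
      intro y hy
      have hyU := hle hy
      rw [hU, Submodule.mem_sup] at hyU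
      obtain ⟨y₁, hy₁, y₂, hy₂, rfl⟩ := hyU
      obtain ⟨α, rfl⟩ := Submodule.mem_span_singleton.1 hy₁
      obtain ⟨β, rfl⟩ := Submodule.mem_span_singleton.1 hy₂
      have e1 : Cfsg.hermForm n F q (α • x + β • f) x = 0 :=
        hy ⟨x, hx⟩ (Submodule.mem_sup_left (Submodule.mem_span_singleton_self _))
      have e2 : Cfsg.hermForm n F q (α • x + β • f) f = 0 :=
        hy ⟨f, hfW⟩ (Submodule.mem_sup_right (Submodule.mem_span_singleton_self _))
      rw [hermForm_add_left, hermForm_smul_left, hermForm_smul_left, hxx, hfv] at e1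
      rw [hermForm_add_left, hermForm_smul_left, hermForm_smul_left, hf, hvf] at e2
      have hβ : β = 0 := by simpa using e1
      have hα : α = 0 := by simpa using e2
      rw [hα, hβ]; simp
    have h0 := finrank_perp HWW U
    have h1 := finrank_sup_span_singleton_le (Submodule.span F {(⟨x, hx⟩ : W)}) (⟨f, hfW⟩ : W)
    have h2 := finrank_span_le_card (R := F) ({(⟨x, hx⟩ : W)} : Set W)
    simp at h2
    rw [hbot, finrank_bot] at h0
    rw [← hU] at h1
    omega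
  have hzv : Cfsg.hermForm n F q z.1 x = 0 :=
    hz ⟨x, hx⟩ (Submodule.mem_sup_left (Submodule.mem_span_singleton_self _))
  have hzf : Cfsg.hermForm n F q z.1 f = 0 :=
    hz ⟨f, hfW⟩ (Submodule.mem_sup_right (Submodule.mem_span_singleton_self _))
  obtain ⟨a, ha⟩ := HWW.exists_not_fixed
  rw [frobQ_apply] at ha
  have ha0 : a ≠ 0 := by
    rintro rfl
    exact ha (zero_pow (by omega))
  have hfix : ∀ y, (∀ w ∈ W, Cfsg.hermForm n F q y w = 0) →
      (torSU hF x f z.1 a ha0 hxx hf hvf hzv hzf hzz).1.1 *ᵥ y = y := by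
    intro y hy
    change torMat n q x f z.1 a *ᵥ y = _
    rw [torMat_mulVec a hf hzv hzf, hy f hfW, hy x hx, hy z.1 z.2]
    simp
  refine ⟨a, ha, torSU hF x f z.1 a ha0 hxx hf hvf hzv hzf hzz,
    su_sub_le hF hq K W hW hd hK _ hfix, ?_, hfix⟩
  change torMat n q x f z.1 a *ᵥ x = _
  rw [torMat_mulVec a hf hzv hzf, hxx, hvf, hermForm_eq_zero_comm hF hzv]
  module

end Cfsg.Agent.Lib.Helper75.MinSU
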